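import Mathlib
import Cfsg.Agent.Lib.Helper39.SqfDeg.Defs

/-!
# S5010, package [KER]

An element of `P` fixing every linear character of `R = O_{p'}(F(G))` lies in `F(G)`
(assuming the packages [COP], [CLA], [R]).
-/

set_option autoImplicit false

namespace Cfsg.Agent.Lib.Helper77.SqfDeg

open Cfsg.Agent.Lib.Helper39.SqfDeg

universe u

/-- splitting `x = z * y` with `z` a power of `x ^ (p ^ k)` and `y` a power of `x` of `p`-power
order -/
theorem split_ppart {G : Type u} [Group G] [Finite G] (p : ℕ) [hp : Fact p.Prime] (x : G)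
    (k : ℕ) :
    ∃ (A : ℕ) (s v : ℤ), x = (x ^ (p ^ k)) ^ s * x ^ v ∧ (x ^ v) ^ (p ^ A) = 1 := by
  have hn : orderOf x ≠ 0 := (orderOf_pos x).ne'
  obtain ⟨a, m, hm, hnm⟩ := Nat.exists_eq_pow_mul_and_not_dvd hn p hp.out.ne_one
  have hcop : Nat.Coprime (p ^ k) m :=
    Nat.Coprime.pow_left k ((Nat.Prime.coprime_iff_not_dvd hp.out).mpr hm)
  have hb := Nat.gcd_eq_gcd_ab (p ^ k) m
  rw [hcop] at hb
  refine ⟨a, Nat.gcdA (p ^ k) m, (m : ℤ) * Nat.gcdB (p ^ k) m, ?_, ?_⟩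
  · rw [← zpow_natCast x (p ^ k), ← zpow_mul, ← zpow_add, ← hb]
    simp
  · have h1 : x ^ ((p ^ a * m : ℕ) : ℤ) = 1 := by
      rw [zpow_natCast, ← hnm, pow_orderOf_eq_one]
    have h2 : (x ^ ((m : ℤ) * Nat.gcdB (p ^ k) m)) ^ (p ^ a)
        = x ^ (((p ^ a * m : ℕ) : ℤ) * Nat.gcdB (p ^ k) m) := by
      rw [← zpow_natCast (x ^ _) (p ^ a), ← zpow_mul]
      congr 1
      push_cast
      ring
    rw [h2, zpow_mul, h1, one_zpow]

/-- **[KER]** from [COP], [CLA], [R]. -/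
theorem pkgKer_of (hC : PkgCoprime.{u}) (hA : PkgClaimA.{u}) (hR : PkgR.{u}) : PkgKer.{u} := by
  intro G _ _ p _ P _ hP x hxP hfix
  obtain ⟨hcop, hnil, hpow, hinn⟩ := hR G p
  obtain ⟨k, hk⟩ := hP x hxP
  obtain ⟨A, s, v, hsplit, hyA⟩ := split_ppart p x k
  obtain ⟨z, hz⟩ : ∃ z : G, z = (x ^ (p ^ k)) ^ s := ⟨_, rfl⟩
  obtain ⟨y, hy⟩ : ∃ y : G, y = x ^ v := ⟨_, rfl⟩
  have hzF : z ∈ Cfsg.fittingSubgroup G := hz ▸ zpow_mem hk s
  have hyP : y ∈ P := hy ▸ zpow_mem hxP v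
  have hxzy : x = z * y := by rw [hz, hy]; exact hsplit
  have hyA' : y ^ (p ^ A) = 1 := by rw [hy]; exact hyA
  -- `z` acts trivially on the linear characters of `R`
  have hdz : dualAct (RR p G) z = 1 := by
    ext lam r
    rw [dualAct_apply]
    obtain ⟨b, hb, hbr⟩ := hinn z⁻¹ (inv_mem hzF)
    have h1 : (⟨z⁻¹ * r * z, by simpa using (RR_normal p G).conj_mem r r.2 z⁻¹⟩ : RR p G)
        = ⟨b, hb⟩ * r * (⟨b, hb⟩ : RR p G)⁻¹ := by
      apply Subtype.ext
      have := hbr r r.2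
      simpa using this
    rw [h1]
    simp
  have hdx : dualAct (RR p G) x = 1 := by
    ext lam r
    rw [hfix lam]
    rfl
  have hdy : dualAct (RR p G) y = 1 := by
    have h : dualAct (RR p G) x = dualAct (RR p G) z * dualAct (RR p G) y := by
      rw [hxzy, map_mul]
    rw [hdx, hdz, one_mul] at h
    exact h.symm
  haveI := hnil
  obtain ⟨σ, hσdef⟩ : ∃ σ : MulAut (RR p G), σ = MulAut.conjNormal y⁻¹ := ⟨_, rfl⟩
  have hσ : σ ^ (p ^ A) = 1 := by
    rw [hσdef, ← map_pow, inv_pow, hyA', inv_one, map_one]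
  have hσval : ∀ r : RR p G, ((σ r : RR p G) : G) = y⁻¹ * r * y := by
    intro r
    rw [hσdef, MulAut.conjNormal_apply, inv_inv]
  have hcomm : ∀ r : RR p G, r⁻¹ * σ r ∈ commutator (RR p G) := by
    intro r
    by_contra hne
    rw [← Abelianization.ker_of, MonoidHom.mem_ker] at hne
    obtain ⟨μ, hμ⟩ := Cfsg.Agent.Lib.Helper74.exists_lin_ne_one
      (A := Abelianization (RR p G)) (fun a b => mul_comm a b) _ hne
    apply hμ
    have h2 := congrArg
      (fun f : MulAut (↥(RR p G) →* ℂˣ) => f (μ.comp Abelianization.of) r) hdy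
    simp only [dualAct_apply] at h2
    have h3 : (⟨y⁻¹ * r * y, by simpa using (RR_normal p G).conj_mem r r.2 y⁻¹⟩ : RR p G)
        = σ r := Subtype.ext (hσval r).symm
    rw [h3] at h2
    have h4 : μ (Abelianization.of (σ r)) = μ (Abelianization.of r) := h2
    rw [map_mul, map_mul, map_inv, map_inv, h4, inv_mul_cancel]
  have hfixall := hC (RR p G) p σ A hcop hσ hcomm
  have hycent : y ∈ Subgroup.centralizer (RR p G : Set G) := by
    rw [Subgroup.mem_centralizer_iff]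
    intro r hr
    have h5 := congrArg Subtype.val (hfixall ⟨r, hr⟩)
    rw [hσval] at h5
    have h6 : y⁻¹ * r * y = r := h5
    calc r * y = y * (y⁻¹ * r * y) := by group
      _ = y * r := by rw [h6]
  have hyF : y ∈ Cfsg.fittingSubgroup G := hA G p P hP ⟨hyP, hycent⟩
  rw [hxzy]
  exact mul_mem hzF hyF

end Cfsg.Agent.Lib.Helper77.SqfDeg
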